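import Cfsg.Agent.H307.QE.Engine
import Cfsg.Agent.H42.K547.EvenDefs
import Cfsg.Agent.H967.K547.LemmaC

/-!
# S4547, q even: Theorem E in the form of the assembly, from Lemma C (helper307)
-/

set_option autoImplicit false

open Cfsg

namespace Cfsg.Agent.H307.QE

open CoxeterSystem Cfsg.Agent.ChevalleyStructure.CoxeterGeom Cfsg.Agent.Tits.Roots Cfsg.Agent.Tits.Core
  Cfsg.Agent.Nodes.BNOf Cfsg.Agent.Nodes.Bruhat Cfsg.Agent.H821.K547

universe u

/-- **Lemma C** (helper967) -/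
def LemmaC : Prop :=
  ∀ {S : Type u} [Group S] [Finite S] {l : ℕ} {M : CoxeterMatrix (Fin l)} [Finite M.Group] {A : Fin l → Fin l → ℤ}
    {h : IsCartan M A} {T : Subgroup S} {n : Fin l → S} {X : (Fin l → ℤ) → Subgroup S}
    (R : RGD M.toCoxeterSystem h 2 T n X) (hG : GG M.toCoxeterSystem h T X = ⊤) {β : MulAut S}
    {σ : Equiv.Perm (Fin l)} (hN : Nrm R β σ) {i j : Fin l}, M i j = 3 → σ i = i → σ j = j →
    ∀ hK : σ '' {i, j} = {i, j}, OCS R hG hN hK

theorem edgeE_of (hC : LemmaC.{u}) : H42.K547.Even.EdgeE.{u} := by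
  intro S _ _ l M _ A h T n X R hG hT β σ hN i j hij hi hj
  have hne : i ≠ j := by
    rintro rfl
    rw [M.diagonal] at hij
    omega
  have hK : σ '' {i, j} = {i, j} := by
    rw [Set.image_pair, hi, hj]
  exact gInv3_edge R hG hT hN hne hi hK (hC R hG hN hij hi hj hK)

/-- **Theorem E**, unconditional -/
theorem edgeE : H42.K547.Even.EdgeE.{u} :=
  edgeE_of fun R hG _ _ hN _ _ hij hi hj hK => H967.K547.LemmaC.ocs_pair R hG hN hij hi hj hK

end Cfsg.Agent.H307.QE
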